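import Cfsg.Agent.H405.RadGrp
import Cfsg.Agent.OddOrderCharacters.NilpotentIndex

/-!
# Frobenius groups acting on nilpotent normal subgroups (helper117, task REC-TB for S3397, S3446)

* `norm_conj`, `exists_norm_ne` : a Frobenius group `E ⟨g⟩` acting on an abelian group without `E`-fixed points;
* `exists_order` : lifting; `exists_sec` : the elementary abelian section;
* `frob_tool`, `frob_tool_mul`, `sylow_tool`.
-/

set_option autoImplicit false

namespace Cfsg.Agent.H117.FrobTool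

universe u

open Subgroup

section abs

variable {Q V : Type*} [Group Q] [CommGroup V] (ρ : Q →* MulAut V)

/-- the norm of a subgroup -/
def nm (E : Subgroup Q) [Fintype E] (v : V) : V := ∏ e : E, ρ (e : Q) v

/-- the norm of an element -/
def nz (g : Q) (n : ℕ) (v : V) : V := ∏ k ∈ Finset.range n, ρ (g ^ k) v

theorem nm_mul (E : Subgroup Q) [Fintype E] (v w : V) : nm ρ E (v * w) = nm ρ E v * nm ρ E w := by
  simp only [nm, map_mul, Finset.prod_mul_distrib]

theorem nm_one (E : Subgroup Q) [Fintype E] : nm ρ E 1 = 1 := by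
  simp only [nm, map_one, Finset.prod_const_one]

theorem nz_mul (g : Q) (n : ℕ) (v w : V) : nz ρ g n (v * w) = nz ρ g n v * nz ρ g n w := by
  simp only [nz, map_mul, Finset.prod_mul_distrib]

theorem act_mul (a b : Q) (v : V) : ρ (a * b) v = ρ a (ρ b v) := by rw [map_mul]; rfl

/-- elements normalising `E` commute with the norm -/
theorem nm_act {E : Subgroup Q} [Fintype E] {x : Q} (hx : x ∈ normalizer (E : Set Q)) (v : V) :
    nm ρ E (ρ x v) = ρ x (nm ρ E v) := by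
  unfold nm
  rw [map_prod]
  let φ : E ≃ E :=
    { toFun := fun e => ⟨x⁻¹ * e * x, by
        have := (mem_normalizer_iff.1 (inv_mem hx) (e : Q)).1 e.2
        rwa [inv_inv] at this⟩
      invFun := fun e => ⟨x * e * x⁻¹, (mem_normalizer_iff.1 hx (e : Q)).1 e.2⟩
      left_inv := fun e => Subtype.ext (by simp [mul_assoc])
      right_inv := fun e => Subtype.ext (by simp [mul_assoc]) }
  rw [← Equiv.prod_comp φ (fun e : E => ρ x (ρ (e : Q) v))]
  refine Finset.prod_congr rfl fun e _ => ?_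
  rw [← act_mul, ← act_mul]
  congr 2
  change (e : Q) * x = x * (x⁻¹ * e * x)
  group

/-- the norm is fixed by `E` -/
theorem act_nm {E : Subgroup Q} [Fintype E] {x : Q} (hx : x ∈ E) (v : V) : ρ x (nm ρ E v) = nm ρ E v := by
  unfold nm
  rw [map_prod, ← Equiv.prod_comp (Equiv.mulLeft (⟨x, hx⟩ : E)) (fun e : E => ρ (e : Q) v)]
  exact Finset.prod_congr rfl fun e _ => (act_mul ρ _ _ _).symm

theorem nm_of_fixed {E : Subgroup Q} [Fintype E] {v : V} (h : ∀ e ∈ E, ρ e v = v) :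
    nm ρ E v = v ^ Fintype.card E := by
  unfold nm
  rw [Finset.prod_congr rfl fun (e : E) _ => h e e.2, Finset.prod_const, Finset.card_univ]

/-- the norm of `g` is fixed by `g` -/
theorem act_nz {g : Q} (v : V) : ρ g (nz ρ g (orderOf g) v) = nz ρ g (orderOf g) v := by
  unfold nz
  rw [map_prod]
  have h1 : ∀ k, ρ g (ρ (g ^ k) v) = ρ (g ^ (k + 1)) v := fun k => by rw [← act_mul, pow_succ']
  simp only [h1]
  have h2 := Finset.prod_range_succ' (fun k => ρ (g ^ k) v) (orderOf g)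
  have h3 := Finset.prod_range_succ (fun k => ρ (g ^ k) v) (orderOf g)
  rw [h3, pow_orderOf_eq_one, pow_zero] at h2
  exact (mul_right_cancel h2).symm

variable {E : Subgroup Q} [Fintype E] {g : Q}

/-- **the partition of a Frobenius group** -/
theorem norm_conj (hg0 : 0 < orderOf g) (hgE : g ∈ normalizer (E : Set Q))
    (hfr : ∀ k : ℕ, g ^ k ≠ 1 → ∀ e ∈ E, g ^ k * e = e * g ^ k → e = 1) {v : V} (hv : nm ρ E v = 1) :
    ∏ e : E, ρ (e : Q)⁻¹ (nz ρ g (orderOf g) (ρ e v)) = v ^ Fintype.card E := by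
  have h1 : ∀ e : E, ρ (e : Q)⁻¹ (nz ρ g (orderOf g) (ρ e v)) =
      ∏ k ∈ Finset.range (orderOf g), ρ ((e : Q)⁻¹ * g ^ k * e) v := by
    intro e
    unfold nz
    rw [map_prod]
    refine Finset.prod_congr rfl fun k _ => ?_
    rw [act_mul, act_mul]
  simp only [h1]
  rw [Finset.prod_comm]
  obtain ⟨m, hm⟩ : ∃ m, orderOf g = m + 1 := ⟨orderOf g - 1, by omega⟩
  rw [hm, Finset.prod_range_succ']
  have h2 : ∀ k ∈ Finset.range m, ∏ e : E, ρ ((e : Q)⁻¹ * g ^ (k + 1) * e) v = 1 := by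
    intro k hk
    rw [Finset.mem_range] at hk
    have hk1 : g ^ (k + 1) ≠ 1 := by
      intro h3
      have := orderOf_dvd_of_pow_eq_one h3
      have := Nat.le_of_dvd (by omega) this
      omega
    have hkE : g ^ (k + 1) ∈ normalizer (E : Set Q) := pow_mem hgE _
    set x := g ^ (k + 1) with hx
    -- the map `e ↦ e⁻¹ (x e x⁻¹)`
    let φ : E → E := fun e => ⟨(e : Q)⁻¹ * (x * e * x⁻¹),
      mul_mem (inv_mem e.2) ((mem_normalizer_iff.1 hkE (e : Q)).1 e.2)⟩
    have hinj : Function.Injective φ := by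
      intro a b hab
      have h3 : (a : Q)⁻¹ * (x * a * x⁻¹) = (b : Q)⁻¹ * (x * b * x⁻¹) := congrArg Subtype.val hab
      have h4 : (b : Q) * (a : Q)⁻¹ = 1 := by
        refine hfr (k + 1) hk1 _ (mul_mem b.2 (inv_mem a.2)) ?_
        rw [← hx]
        have h5 : (b : Q) * ((a : Q)⁻¹ * (x * a * x⁻¹)) * (x * (a : Q)⁻¹) =
            (b : Q) * ((b : Q)⁻¹ * (x * b * x⁻¹)) * (x * (a : Q)⁻¹) := by rw [h3]
        have h6 : (b : Q) * ((a : Q)⁻¹ * (x * a * x⁻¹)) * (x * (a : Q)⁻¹) = (b : Q) * (a : Q)⁻¹ * x := by group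
        have h7 : (b : Q) * ((b : Q)⁻¹ * (x * b * x⁻¹)) * (x * (a : Q)⁻¹) = x * ((b : Q) * (a : Q)⁻¹) := by group
        rw [h6, h7] at h5
        exact h5.symm
      exact (Subtype.ext (mul_inv_eq_one.1 h4)).symm
    have hbij : Function.Bijective φ := Finite.injective_iff_bijective.1 hinj
    calc ∏ e : E, ρ ((e : Q)⁻¹ * x * e) v = ∏ e : E, ρ ((φ e : Q)) (ρ x v) := by
          refine Finset.prod_congr rfl fun e _ => ?_
          rw [← act_mul]
          congr 2
          change _ = (e : Q)⁻¹ * (x * e * x⁻¹) * x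
          group
      _ = ∏ e : E, ρ (e : Q) (ρ x v) := hbij.prod_comp (fun e : E => ρ (e : Q) (ρ x v))
      _ = nm ρ E (ρ x v) := rfl
      _ = 1 := by rw [nm_act ρ hkE, hv, map_one]
  rw [Finset.prod_eq_one h2, one_mul]
  have h3 : ∀ e : E, ρ ((e : Q)⁻¹ * g ^ 0 * e) v = v := by
    intro e
    rw [pow_zero, mul_one, inv_mul_cancel, map_one]
    rfl
  rw [Finset.prod_congr rfl fun e _ => h3 e, Finset.prod_const, Finset.card_univ]

/-- the norm of `g` is not trivial on a nonzero `E`-submodule without `E`-fixed points -/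
theorem exists_norm_ne (hg0 : 0 < orderOf g) (hgE : g ∈ normalizer (E : Set Q))
    (hfr : ∀ k : ℕ, g ^ k ≠ 1 → ∀ e ∈ E, g ^ k * e = e * g ^ k → e = 1) (W : Subgroup V) (hW : W ≠ ⊥)
    (hWE : ∀ e ∈ E, ∀ w ∈ W, ρ e w ∈ W) (hWs : ∀ w ∈ W, nm ρ E w = 1)
    (hc : ∀ w ∈ W, w ^ Fintype.card E = 1 → w = 1) : ∃ w ∈ W, nz ρ g (orderOf g) w ≠ 1 := by
  by_contra hcon
  push Not at hcon
  apply hW
  rw [Subgroup.eq_bot_iff_forall]
  intro w hw
  apply hc w hw
  rw [← norm_conj ρ hg0 hgE hfr (hWs w hw)]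
  refine Finset.prod_eq_one fun e _ => ?_
  rw [hcon _ (hWE e e.2 w hw), map_one]

/-- a nontrivial action of `E` of coprime order has a part without fixed points -/
theorem exists_nm_eq_one (W : Subgroup V) [Finite W] (hWE : ∀ e ∈ E, ∀ w ∈ W, ρ e w ∈ W)
    (hne : ¬ ∀ e ∈ E, ∀ w ∈ W, ρ e w = w) : ∃ w ∈ W, w ≠ 1 ∧ nm ρ E w = 1 := by
  by_contra hcon
  push Not at hcon
  apply hne
  have hmem : ∀ w ∈ W, nm ρ E w ∈ W := fun w hw => by
    unfold nm
    exact prod_mem fun e _ => hWE e e.2 w hw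
  let f : W → W := fun w => ⟨nm ρ E w, hmem w w.2⟩
  have hinj : Function.Injective f := by
    intro a b hab
    have h1 : nm ρ E (a : V) = nm ρ E (b : V) := congrArg Subtype.val hab
    have h2 : nm ρ E ((a : V) * (b : V)⁻¹) = 1 := by
      have h3 : nm ρ E ((a : V) * (b : V)⁻¹) * nm ρ E (b : V) = nm ρ E (a : V) := by
        rw [← nm_mul, inv_mul_cancel_right]
      rw [← h1] at h3
      exact mul_eq_right.1 h3
    by_contra hne'
    refine hcon _ (mul_mem a.2 (inv_mem b.2)) (fun h3 => hne' (Subtype.ext (mul_inv_eq_one.1 h3))) h2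
  have hsur : Function.Surjective f := Finite.injective_iff_surjective.1 hinj
  intro e he w hw
  obtain ⟨u, hu⟩ := hsur ⟨w, hw⟩
  have h1 : nm ρ E (u : V) = w := congrArg Subtype.val hu
  rw [← h1]
  exact act_nm ρ he _

/-- the part without fixed points -/
def kr (E : Subgroup Q) [Fintype E] : Subgroup V where
  carrier := {v | nm ρ E v = 1}
  mul_mem' := by
    intro a b ha hb
    change nm ρ E (a * b) = 1
    rw [nm_mul, show nm ρ E a = 1 from ha, show nm ρ E b = 1 from hb, one_mul]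
  one_mem' := nm_one ρ E
  inv_mem' := by
    intro a ha
    change nm ρ E a⁻¹ = 1
    have h3 : nm ρ E a⁻¹ * nm ρ E a = 1 := by rw [← nm_mul, inv_mul_cancel, nm_one]
    rwa [show nm ρ E a = 1 from ha, mul_one] at h3

theorem mem_kr {v : V} : v ∈ kr ρ E ↔ nm ρ E v = 1 := Iff.rfl

theorem act_mem_kr {x : Q} (hx : x ∈ normalizer (E : Set Q)) {v : V} (hv : v ∈ kr ρ E) : ρ x v ∈ kr ρ E := by
  rw [mem_kr] at hv ⊢
  rw [nm_act ρ hx, hv, map_one]

end abs

section core

variable {G Q V : Type*} [Group G] [Group Q] [CommGroup V] {ι : V →* G} {π : G →* Q} {ρ : Q →* MulAut V} {t : ℕ}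

/-- `V` is the kernel of `π : G → Q`, of exponent `t`, and `ρ` is the action of `Q` on `V` -/
structure Ext (ι : V →* G) (π : G →* Q) (ρ : Q →* MulAut V) (t : ℕ) : Prop where
  inj : Function.Injective ι
  sur : Function.Surjective π
  ker : ∀ x, π x = 1 ↔ ∃ v, ι v = x
  act : ∀ z v, ι (ρ (π z) v) = z * ι v * z⁻¹
  exp : ∀ v : V, v ^ t = 1
  prime : t.Prime
  nt : ∃ v : V, v ≠ 1

theorem Ext.pi_iota (h : Ext ι π ρ t) (v : V) : π (ι v) = 1 := (h.ker _).2 ⟨v, rfl⟩

theorem Ext.mul_pow (h : Ext ι π ρ t) (z : G) (w : V) (m : ℕ) :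
    (ι w * z) ^ m = ι (nz ρ (π z) m w) * z ^ m := by
  induction m with
  | zero => simp [nz]
  | succ m ih =>
    have h1 : nz ρ (π z) (m + 1) w = nz ρ (π z) m w * ρ (π z ^ m) w := by
      unfold nz
      rw [Finset.prod_range_succ]
    have h2 := h.act (z ^ m) w
    rw [map_pow] at h2
    rw [pow_succ, ih, h1, map_mul, h2]
    group

theorem Ext.exists_order [Finite G] (h : Ext ι π ρ t) (q : Q) (v : V) (hv : nz ρ q (orderOf q) v ≠ 1) :
    ∃ y : G, orderOf y = t * orderOf q := by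
  have := Finite.of_surjective π h.sur
  obtain ⟨z, rfl⟩ := h.sur q
  have hn0 : 0 < orderOf (π z) := orderOf_pos _
  set n := orderOf (π z) with hn
  -- an element `w` with `(w z) ^ n ≠ 1`
  have h1 : ∃ w : V, (ι w * z) ^ n ≠ 1 := by
    by_cases hz : z ^ n = 1
    · refine ⟨v, ?_⟩
      rw [h.mul_pow, hz, mul_one]
      intro h2
      exact hv (h.inj (by rw [h2, map_one]))
    · refine ⟨1, ?_⟩
      rwa [map_one, one_mul]
  obtain ⟨w, hw⟩ := h1
  set y := ι w * z with hy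
  have hpy : π y = π z := by rw [hy, map_mul, h.pi_iota, one_mul]
  have h2 : π (y ^ n) = 1 := by rw [map_pow, hpy, hn, pow_orderOf_eq_one]
  obtain ⟨u, hu⟩ := (h.ker _).1 h2
  have h3 : orderOf (y ^ n) = t := by
    have := Fact.mk h.prime
    apply orderOf_eq_prime
    · rw [← hu, ← map_pow, h.exp, map_one]
    · exact hw
  have h4 : n ∣ orderOf y := by
    rw [hn, ← hpy]
    exact orderOf_map_dvd π y
  rw [orderOf_pow_of_dvd hn0.ne' h4] at h3
  refine ⟨y, ?_⟩
  rw [← h3, Nat.div_mul_cancel h4]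

/-- a simple normal subgroup acts faithfully -/
theorem Ext.faithful [Finite G] (h : Ext ι π ρ t) {S : Subgroup Q} (hS : IsSimpleGroup ↥S) {p : ℕ}
    (hp : p.Prime) (hpt : p ≠ t) (hpS : p ∣ Nat.card ↥S) (hno : ¬ ∃ y : G, orderOf y = p * t) {s : Q} (hs : s ∈ S)
    (hact : ∀ v, ρ s v = v) : s = 1 := by
  have := Finite.of_surjective π h.sur
  have := Fact.mk hp
  rcases hS.eq_bot_or_eq_top_of_normal (ρ.ker.subgroupOf S) (by infer_instance) with h1 | h1
  · have h2 : (⟨s, hs⟩ : S) ∈ ρ.ker.subgroupOf S := by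
      rw [mem_subgroupOf, MonoidHom.mem_ker]
      ext v
      rw [hact]
      rfl
    rw [h1, mem_bot] at h2
    exact congrArg Subtype.val h2
  · exfalso
    obtain ⟨x, hx⟩ := exists_prime_orderOf_dvd_card' p hpS
    obtain ⟨z, hz⟩ := h.sur (x : Q)
    obtain ⟨v, hv⟩ := h.nt
    have h2 : (x : S) ∈ ρ.ker.subgroupOf S := by rw [h1]; exact mem_top x
    rw [mem_subgroupOf, MonoidHom.mem_ker] at h2
    have h3 : Commute z (ι v) := by
      have h4 := h.act z v
      rw [hz, h2] at h4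
      have h5 : ι v = z * ι v * z⁻¹ := h4
      have h6 : ι v * z = z * ι v := by
        conv_lhs => rw [h5]
        group
      exact h6.symm
    have h4 : p ∣ orderOf z := by
      have h5 : orderOf (x : Q) = p := by rw [orderOf_coe]; exact hx
      rw [← h5, ← hz]
      exact orderOf_map_dvd π z
    have h5 : t ∣ orderOf (ι v) := by
      have := Fact.mk h.prime
      rw [orderOf_injective ι h.inj, orderOf_eq_prime (h.exp v) hv]
    exact hno (H405.RadGrp.exists_order_of_commute hp h.prime hpt h4 h5 h3)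

theorem Ext.eq_one (h : Ext ι π ρ t) {w : V} {m : ℕ} (hm : ¬ t ∣ m) (hw : w ^ m = 1) : w = 1 := by
  have h1 : Nat.Coprime m t := ((h.prime.coprime_iff_not_dvd).2 hm).symm
  have h2 := orderOf_dvd_of_pow_eq_one hw
  have h3 := orderOf_dvd_of_pow_eq_one (h.exp w)
  have h4 : orderOf w ∣ 1 := by
    rw [← Nat.coprime_iff_gcd_eq_one.1 h1]
    exact Nat.dvd_gcd h2 h3
  exact orderOf_eq_one_iff.1 (Nat.dvd_one.1 h4)

theorem Ext.kr_ne [Finite G] (h : Ext ι π ρ t) {S : Subgroup Q} (hS : IsSimpleGroup ↥S) {p : ℕ}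
    (hp : p.Prime) (hpt : p ≠ t) (hpS : p ∣ Nat.card ↥S) (hno : ¬ ∃ y : G, orderOf y = p * t)
    {E : Subgroup Q} [Fintype E] (hE : E ≠ ⊥) (hES : E ≤ S) : kr ρ E ≠ ⊥ := by
  have : Finite V := Finite.of_injective ι h.inj
  obtain ⟨w, -, hw1, hw2⟩ := exists_nm_eq_one ρ (E := E) (⊤ : Subgroup V) (fun _ _ _ _ => mem_top _) (by
    intro hcon
    apply hE
    rw [Subgroup.eq_bot_iff_forall]
    intro e he
    exact h.faithful hS hp hpt hpS hno (hES he) fun v => hcon e he v (mem_top v))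
  intro h1
  apply hw1
  have h2 : w ∈ kr ρ E := hw2
  rwa [h1, mem_bot] at h2

theorem Ext.frob [Finite G] (h : Ext ι π ρ t) {S : Subgroup Q} (hS : IsSimpleGroup ↥S) {p : ℕ}
    (hp : p.Prime) (hpt : p ≠ t) (hpS : p ∣ Nat.card ↥S) (hno : ¬ ∃ y : G, orderOf y = p * t)
    {E : Subgroup Q} (hE : E ≠ ⊥) (hES : E ≤ S) (hEt : ¬ t ∣ Nat.card ↥E) {g : Q}
    (hgE : g ∈ normalizer (E : Set Q))
    (hfr : ∀ k : ℕ, g ^ k ≠ 1 → ∀ e ∈ E, g ^ k * e = e * g ^ k → e = 1) :
    ∃ y : G, orderOf y = t * orderOf g := by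
  have := Finite.of_surjective π h.sur
  have := Fintype.ofFinite E
  obtain ⟨w, -, hw⟩ := exists_norm_ne ρ (orderOf_pos g) hgE hfr (kr ρ E) (h.kr_ne hS hp hpt hpS hno hE hES)
    (fun e he w hw => act_mem_kr ρ (le_normalizer he) hw) (fun w hw => hw)
    (fun w _ hw => h.eq_one (by rwa [← Nat.card_eq_fintype_card]) hw)
  exact h.exists_order g w hw

/-- the norm of a product of commuting elements on a vector fixed by the second one -/
theorem nz_mul_of_fixed {g g' : Q} (hgg : Commute g g') {w : V} (hw : ρ g' w = w) (n n' : ℕ)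
    (hn : g ^ n = 1) : nz ρ (g * g') (n * n') w = nz ρ g n w ^ n' := by
  have h0 : ∀ k : ℕ, ρ (g' ^ k) w = w := by
    intro k
    induction k with
    | zero => rw [pow_zero, map_one]; rfl
    | succ k ih => rw [pow_succ, act_mul, hw, ih]
  have h1 : nz ρ (g * g') (n * n') w = nz ρ g (n * n') w := by
    unfold nz
    refine Finset.prod_congr rfl fun k _ => ?_
    rw [hgg.mul_pow, act_mul, h0]
  rw [h1]
  clear h1
  induction n' with
  | zero => simp [nz]
  | succ n' ih =>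
    rw [mul_add, mul_one, pow_succ, ← ih]
    unfold nz
    rw [Finset.prod_range_add]
    congr 1
    refine Finset.prod_congr rfl fun k _ => ?_
    rw [pow_add, pow_mul, hn, one_pow, one_mul]

theorem Ext.frob_mul [Finite G] (h : Ext ι π ρ t) {S : Subgroup Q} (hS : IsSimpleGroup ↥S) {p : ℕ}
    (hp : p.Prime) (hpt : p ≠ t) (hpS : p ∣ Nat.card ↥S) (hno : ¬ ∃ y : G, orderOf y = p * t)
    {E : Subgroup Q} (hE : E ≠ ⊥) (hES : E ≤ S) (hEt : ¬ t ∣ Nat.card ↥E) {g : Q}
    (hgE : g ∈ normalizer (E : Set Q))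
    (hfr : ∀ k : ℕ, g ^ k ≠ 1 → ∀ e ∈ E, g ^ k * e = e * g ^ k → e = 1)
    {E' : Subgroup Q} (hE'1 : E' ≠ ⊥) (hE' : ¬ t ∣ Nat.card ↥E') {g' : Q} (hg't : ¬ t ∣ orderOf g')
    (hco : Nat.Coprime (orderOf g) (orderOf g'))
    (hgE' : g' ∈ normalizer (E' : Set Q))
    (hfr' : ∀ k : ℕ, g' ^ k ≠ 1 → ∀ e ∈ E', g' ^ k * e = e * g' ^ k → e = 1)
    (hcomm : ∀ a ∈ insert g (E : Set Q), ∀ c ∈ insert g' (E' : Set Q), a * c = c * a)
    {X : Subgroup Q} (hX : IsSimpleGroup ↥X) (hE'X : E' ≤ X) (hg'X : g' ∈ X)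
    (hXc : ∀ a ∈ insert g (E : Set Q), ∀ c ∈ X, a * c = c * a) :
    ∃ y : G, orderOf y = t * orderOf g * orderOf g' := by
  have := Finite.of_surjective π h.sur
  have := Fintype.ofFinite E
  have := Fintype.ofFinite E'
  have : Finite V := Finite.of_injective ι h.inj
  -- `X` acts on `W = [V, E]`
  have hXE : ∀ x ∈ X, x ∈ normalizer (E : Set Q) := by
    intro x hx
    rw [mem_normalizer_iff]
    intro e
    constructor
    · intro he
      have h1 := hXc e (Set.mem_insert_of_mem _ he) x hx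
      rwa [← h1, mul_inv_cancel_right]
    · intro he
      have h1 := hXc _ (Set.mem_insert_of_mem _ he) x hx
      have h2 : e = x * e * x⁻¹ := by
        have h3 : x⁻¹ * (x * e * x⁻¹ * x) = x⁻¹ * (x * (x * e * x⁻¹)) := by rw [h1]
        have h4 : x⁻¹ * (x * e * x⁻¹ * x) = e := by group
        have h5 : x⁻¹ * (x * (x * e * x⁻¹)) = x * e * x⁻¹ := by group
        rwa [h4, h5] at h3
      rw [h2]
      exact he
  set W := kr ρ E with hW
  have hWX : ∀ x ∈ X, ∀ w ∈ W, ρ x w ∈ W := fun x hx w hw => act_mem_kr ρ (hXE x hx) hw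
  have hWne : W ≠ ⊥ := h.kr_ne hS hp hpt hpS hno hE hES
  -- a nonzero vector of `W` fixed by `g'`
  have key : ∃ u ∈ W, u ≠ 1 ∧ ρ g' u = u := by
    by_cases htr : ∀ x ∈ X, ∀ w ∈ W, ρ x w = w
    · obtain ⟨u, hu, hu1⟩ := (Subgroup.ne_bot_iff_exists_ne_one.1 hWne) |>.elim fun u hu =>
        (⟨(u : V), u.2, fun h1 => hu (Subtype.ext h1)⟩ : ∃ u : V, u ∈ W ∧ u ≠ 1)
      exact ⟨u, hu, hu1, htr g' hg'X u hu⟩
    · -- the kernel of the action of `X` on `W` is trivial
      let C : Subgroup X :=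
        { carrier := {x | ∀ w ∈ W, ρ (x : Q) w = w}
          mul_mem' := by
            intro a b ha hb w hw
            change ρ ((a : Q) * b) w = w
            rw [act_mul, hb w hw, ha w hw]
          one_mem' := by
            intro w _
            change ρ 1 w = w
            rw [map_one]; rfl
          inv_mem' := by
            intro a ha w hw
            change ρ ((a : Q)⁻¹) w = w
            have h1 := ha w hw
            have h2 : ρ ((a : Q)⁻¹) (ρ (a : Q) w) = w := by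
              rw [← act_mul, inv_mul_cancel, map_one]; rfl
            rwa [h1] at h2 }
      have hCn : C.Normal := by
        refine ⟨fun a ha x w hw => ?_⟩
        change ρ ((x : Q) * a * (x : Q)⁻¹) w = w
        have h1 : ρ ((x : Q)⁻¹) w ∈ W := hWX _ (inv_mem x.2) w hw
        rw [act_mul, act_mul, ha _ h1, ← act_mul, mul_inv_cancel, map_one]
        rfl
      have hC : C = ⊥ := by
        rcases hX.eq_bot_or_eq_top_of_normal C hCn with h1 | h1
        · exact h1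
        · exfalso
          apply htr
          intro x hx w hw
          have h2 : (⟨x, hx⟩ : X) ∈ C := by rw [h1]; exact mem_top _
          exact h2 w hw
      have hE'W : ∀ e ∈ E', ∀ w ∈ W, ρ e w ∈ W := fun e he => hWX e (hE'X he)
      obtain ⟨w, hwW, hw1, hw2⟩ := exists_nm_eq_one ρ (E := E') W hE'W (by
        intro hcon
        apply hE'1
        rw [Subgroup.eq_bot_iff_forall]
        intro e he
        have h2 : (⟨e, hE'X he⟩ : X) ∈ C := fun w hw => hcon e he w hw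
        rw [hC, mem_bot] at h2
        exact congrArg Subtype.val h2)
      obtain ⟨w, hw, hw3⟩ := exists_norm_ne ρ (orderOf_pos g') hgE' hfr' (W ⊓ kr ρ E')
        (fun h1 => hw1 (by
          have h2 : w ∈ W ⊓ kr ρ E' := Subgroup.mem_inf.2 ⟨hwW, hw2⟩
          rwa [h1, mem_bot] at h2))
        (fun e he w hw => Subgroup.mem_inf.2 ⟨hE'W e he w (Subgroup.mem_inf.1 hw).1,
          act_mem_kr ρ (le_normalizer he) (Subgroup.mem_inf.1 hw).2⟩)
        (fun w hw => (Subgroup.mem_inf.1 hw).2)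
        (fun w _ hw => h.eq_one (by rwa [← Nat.card_eq_fintype_card]) hw)
      refine ⟨nz ρ g' (orderOf g') w, ?_, hw3, act_nz ρ w⟩
      unfold nz
      exact prod_mem fun k _ => hWX _ (pow_mem hg'X k) w (Subgroup.mem_inf.1 hw).1
  obtain ⟨u, huW, hu1, hu2⟩ := key
  -- the fixed points of `g'` in `W`
  let F : Subgroup V :=
    { carrier := {w | ρ g' w = w}
      mul_mem' := by
        intro a b ha hb
        change ρ g' (a * b) = a * b
        rw [map_mul, show ρ g' a = a from ha, show ρ g' b = b from hb]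
      one_mem' := map_one _
      inv_mem' := by
        intro a ha
        change ρ g' a⁻¹ = a⁻¹
        rw [map_inv, show ρ g' a = a from ha] }
  have hgc : ∀ a ∈ insert g (E : Set Q), a * g' = g' * a := fun a ha => hcomm a ha g' (Set.mem_insert _ _)
  obtain ⟨w, hw, hw3⟩ := exists_norm_ne ρ (orderOf_pos g) hgE hfr (W ⊓ F)
    (fun h1 => hu1 (by
      have h2 : u ∈ W ⊓ F := Subgroup.mem_inf.2 ⟨huW, hu2⟩
      rwa [h1, mem_bot] at h2))
    (fun e he w hw => Subgroup.mem_inf.2 ⟨act_mem_kr ρ (le_normalizer he) (Subgroup.mem_inf.1 hw).1, by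
      change ρ g' (ρ e w) = ρ e w
      have h1 : ρ g' w = w := (Subgroup.mem_inf.1 hw).2
      rw [← act_mul, ← hgc e (Set.mem_insert_of_mem _ he), act_mul, h1]⟩)
    (fun w hw => (Subgroup.mem_inf.1 hw).1)
    (fun w _ hw => h.eq_one (by rwa [← Nat.card_eq_fintype_card]) hw)
  have hgg : Commute g g' := hgc g (Set.mem_insert _ _)
  have h1 : nz ρ (g * g') (orderOf (g * g')) w ≠ 1 := by
    rw [hgg.orderOf_mul_eq_mul_orderOf_of_coprime hco,
      nz_mul_of_fixed hgg (Subgroup.mem_inf.1 hw).2 _ _ (pow_orderOf_eq_one g)]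
    intro h2
    exact hw3 (h.eq_one hg't h2)
  obtain ⟨y, hy⟩ := h.exists_order (g * g') w h1
  refine ⟨y, ?_⟩
  rw [hy, hgg.orderOf_mul_eq_mul_orderOf_of_coprime hco, mul_assoc]

end core

section section_

variable {G : Type*} [Group G] [Finite G]

/-- the elementary abelian quotient of a nilpotent normal subgroup -/
theorem exists_sub (K : Subgroup G) [hKn : K.Normal] (hK : Group.IsNilpotent ↥K) {t : ℕ}
    (ht : t.Prime) (htK : t ∣ Nat.card ↥K) : ∃ L : Subgroup G, L.Normal ∧ L ≤ K ∧ L ≠ K ∧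
      (∀ a ∈ K, a ^ t ∈ L) ∧ ∀ a ∈ K, ∀ b ∈ K, a * b * a⁻¹ * b⁻¹ ∈ L := by
  set s : Set G := {x | ∃ a ∈ K, x = a ^ t ∨ ∃ b ∈ K, x = a * b * a⁻¹ * b⁻¹} with hs
  have hconj : ∀ g : G, ∀ a ∈ K, g * a * g⁻¹ ∈ K := fun g a ha => hKn.conj_mem a ha g
  have hsK : closure s ≤ K := by
    rw [closure_le]
    rintro x ⟨a, ha, rfl | ⟨b, hb, rfl⟩⟩
    · exact pow_mem ha t
    · exact mul_mem (mul_mem (mul_mem ha hb) (inv_mem ha)) (inv_mem hb)
  refine ⟨closure s, ?_, hsK, ?_, ?_, ?_⟩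
  · refine ⟨fun x hx g => ?_⟩
    have h1 : closure s ≤ (closure s).comap (MulAut.conj g).toMonoidHom := by
      rw [closure_le]
      rintro x ⟨a, ha, rfl | ⟨b, hb, rfl⟩⟩
      · refine subset_closure ⟨g * a * g⁻¹, hconj g a ha, Or.inl ?_⟩
        change g * a ^ t * g⁻¹ = _
        rw [conj_pow]
      · refine subset_closure ⟨g * a * g⁻¹, hconj g a ha, Or.inr ⟨g * b * g⁻¹, hconj g b hb, ?_⟩⟩
        change g * (a * b * a⁻¹ * b⁻¹) * g⁻¹ = _
        group
    exact h1 hx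
  · intro heq
    -- the `t`-th power map on the abelianization of `K` is surjective
    have h1 := OddOrderCharacters.NilpotentIndex.dvd_index_commutator hK ht htK
    have h2 : t ∣ Nat.card (Abelianization ↥K) := h1
    have := Fact.mk ht
    obtain ⟨c, hc⟩ := exists_prime_orderOf_dvd_card' t h2
    let φ : ↥K →* Abelianization ↥K := Abelianization.of
    have hφ : Function.Surjective φ := QuotientGroup.mk_surjective
    let pw : Abelianization ↥K →* Abelianization ↥K := powMonoidHom t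
    have h3 : K ≤ (pw.range.comap φ).map K.subtype := by
      refine le_trans heq.ge ?_
      rw [closure_le]
      rintro x ⟨a, ha, rfl | ⟨b, hb, rfl⟩⟩
      · exact ⟨⟨a ^ t, pow_mem ha t⟩, ⟨φ ⟨a, ha⟩, (map_pow φ ⟨a, ha⟩ t).symm⟩, rfl⟩
      · refine ⟨⟨a, ha⟩ * ⟨b, hb⟩ * ⟨a, ha⟩⁻¹ * ⟨b, hb⟩⁻¹, ?_, rfl⟩
        change φ _ ∈ pw.range
        rw [map_mul, map_mul, map_mul, map_inv, map_inv, mul_comm (φ ⟨a, ha⟩) (φ ⟨b, hb⟩),
          mul_inv_cancel_right, mul_inv_cancel]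
        exact one_mem _
    have h4 : Function.Surjective pw := by
      intro y
      obtain ⟨x, rfl⟩ := hφ y
      obtain ⟨x', hx', hxx⟩ := h3 x.2
      have h5 : x' = x := Subtype.ext hxx
      rw [← h5]
      exact hx'
    have h5 : Function.Injective pw := Finite.injective_iff_surjective.2 h4
    have h6 : c = 1 := by
      apply h5
      change c ^ t = 1 ^ t
      rw [one_pow, ← hc, pow_orderOf_eq_one]
    rw [h6, orderOf_one] at hc
    exact ht.one_lt.ne hc
  · exact fun a ha => subset_closure ⟨a, ha, Or.inl rfl⟩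
  · exact fun a ha b hb => subset_closure ⟨a, ha, Or.inr ⟨b, hb, rfl⟩⟩

/-- element orders lift -/
theorem lift_order {H : Type*} [Group H] (φ : G →* H) (hφ : Function.Surjective φ) {N : ℕ} (hN : N ≠ 0)
    (h : ∃ y : H, orderOf y = N) : ∃ x : G, orderOf x = N := by
  obtain ⟨y, hy⟩ := h
  obtain ⟨x, rfl⟩ := hφ y
  refine ⟨x ^ (orderOf x / N), ?_⟩
  exact orderOf_pow_orderOf_div (orderOf_pos x).ne' (hy ▸ orderOf_map_dvd φ x)

/-- the action of `G / K` on an elementary abelian quotient of `K` -/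
theorem exists_ext {G : Type u} [Group G] [Finite G] (K : Subgroup G) [K.Normal] (hK : Group.IsNilpotent ↥K) {t : ℕ}
    (ht : t.Prime) (htK : t ∣ Nat.card ↥K) : ∃ (L : Subgroup G) (_ : L.Normal) (V0 : Type u)
      (_ : CommGroup V0) (ι : V0 →* (G ⧸ L)) (π : G ⧸ L →* G ⧸ K) (ρ : G ⧸ K →* MulAut V0), Ext ι π ρ t := by
  obtain ⟨L, hLn, hLK, hne, hpow, hcm⟩ := exists_sub K hK ht htK
  refine ⟨L, hLn, ?_⟩
  let π : G ⧸ L →* G ⧸ K := QuotientGroup.map L K (MonoidHom.id G) hLK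
  have hπ : Function.Surjective π := by
    intro y
    obtain ⟨x, rfl⟩ := QuotientGroup.mk_surjective y
    exact ⟨QuotientGroup.mk x, rfl⟩
  have hmem : ∀ x : π.ker, ∃ a ∈ K, (QuotientGroup.mk a : G ⧸ L) = x := by
    rintro ⟨x, hx⟩
    obtain ⟨a, rfl⟩ := QuotientGroup.mk_surjective x
    refine ⟨a, ?_, rfl⟩
    rw [MonoidHom.mem_ker] at hx
    exact (QuotientGroup.eq_one_iff a).1 hx
  have hcomm : ∀ x y : π.ker, x * y = y * x := by
    intro x y
    obtain ⟨a, ha, hax⟩ := hmem x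
    obtain ⟨b, hb, hby⟩ := hmem y
    apply Subtype.ext
    change (x : G ⧸ L) * y = y * x
    rw [← hax, ← hby]
    have h1 := (QuotientGroup.eq_one_iff (a * b * a⁻¹ * b⁻¹)).2 (hcm a ha b hb)
    have h2 : (QuotientGroup.mk a : G ⧸ L) * QuotientGroup.mk b * (QuotientGroup.mk a)⁻¹ * (QuotientGroup.mk b)⁻¹ = 1 := h1
    rw [mul_inv_eq_one, mul_inv_eq_iff_eq_mul] at h2
    exact h2
  let cg : CommGroup π.ker := { (inferInstance : Group π.ker) with mul_comm := hcomm }
  let ρ0 : G ⧸ L →* MulAut π.ker := MulAut.conjNormal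
  have hρ0 : π.ker ≤ ρ0.ker := by
    intro z hz
    rw [MonoidHom.mem_ker]
    ext v
    change z * (v : G ⧸ L) * z⁻¹ = v
    have h1 := congrArg Subtype.val (hcomm ⟨z, hz⟩ v)
    change z * (v : G ⧸ L) = v * z at h1
    rw [h1, mul_inv_cancel_right]
  let ρ : G ⧸ K →* MulAut π.ker := π.liftOfSurjective hπ ⟨ρ0, hρ0⟩
  have hρ : ∀ z, ρ (π z) = ρ0 z := fun z => MonoidHom.liftOfRightInverse_comp_apply _ _ _ _ z
  refine ⟨π.ker, cg, π.ker.subtype, π, ρ, ?_⟩
  refine
    { inj := Subtype.val_injective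
      sur := hπ
      ker := fun x => ⟨fun hx => ⟨⟨x, hx⟩, rfl⟩, fun ⟨v, hv⟩ => hv ▸ v.2⟩
      act := fun z v => ?_
      exp := fun v => ?_
      prime := ht
      nt := ?_ }
  · rw [hρ]; rfl
  · obtain ⟨a, ha, hav⟩ := hmem v
    apply Subtype.ext
    change (v : G ⧸ L) ^ t = 1
    rw [← hav]
    exact (QuotientGroup.eq_one_iff (a ^ t)).2 (hpow a ha)
  · by_contra hcon
    push Not at hcon
    apply hne
    apply le_antisymm hLK
    intro a ha
    have h1 : (QuotientGroup.mk a : G ⧸ L) ∈ π.ker := (QuotientGroup.eq_one_iff a).2 ha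
    have h2 := congrArg Subtype.val (hcon ⟨_, h1⟩)
    exact (QuotientGroup.eq_one_iff a).1 h2

theorem frob_tool {G : Type*} [Group G] [Finite G] (K : Subgroup G) [K.Normal] (hK : Group.IsNilpotent ↥K) {t : ℕ}
    (ht : t.Prime) (htK : t ∣ Nat.card ↥K) (S : Subgroup (G ⧸ K)) [S.Normal] (hS : IsSimpleGroup ↥S)
    {p : ℕ} (hp : p.Prime) (hpt : p ≠ t) (hpS : p ∣ Nat.card ↥S) (hno : ¬ ∃ y : G, orderOf y = p * t)
    (E : Subgroup (G ⧸ K)) (hE : E ≠ ⊥) (hES : E ≤ S) (hEt : ¬ t ∣ Nat.card ↥E) (g : G ⧸ K)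
    (hgE : g ∈ Subgroup.normalizer (E : Set (G ⧸ K)))
    (hfr : ∀ k : ℕ, g ^ k ≠ 1 → ∀ e ∈ E, g ^ k * e = e * g ^ k → e = 1) :
    ∃ y : G, orderOf y = t * orderOf g := by
  obtain ⟨L, hLn, V0, cg, ι, π, ρ, h⟩ := exists_ext K hK ht htK
  refine lift_order (QuotientGroup.mk' L) QuotientGroup.mk_surjective
    (Nat.mul_ne_zero ht.ne_zero (orderOf_pos g).ne') ?_
  exact h.frob hS hp hpt hpS
    (fun h1 => hno (lift_order (QuotientGroup.mk' L) QuotientGroup.mk_surjective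
      (Nat.mul_ne_zero hp.ne_zero ht.ne_zero) h1)) hE hES hEt hgE hfr

/-- As posted, with the additional hypothesis `E' ≠ ⊥` (without it the statement is false). -/
theorem frob_tool_mul {G : Type*} [Group G] [Finite G] (K : Subgroup G) [K.Normal] (hK : Group.IsNilpotent ↥K) {t : ℕ}
    (ht : t.Prime) (htK : t ∣ Nat.card ↥K) (S : Subgroup (G ⧸ K)) [S.Normal] (hS : IsSimpleGroup ↥S)
    {p : ℕ} (hp : p.Prime) (hpt : p ≠ t) (hpS : p ∣ Nat.card ↥S) (hno : ¬ ∃ y : G, orderOf y = p * t)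
    (E : Subgroup (G ⧸ K)) (hE : E ≠ ⊥) (hES : E ≤ S) (hEt : ¬ t ∣ Nat.card ↥E) (g : G ⧸ K)
    (hgE : g ∈ Subgroup.normalizer (E : Set (G ⧸ K)))
    (hfr : ∀ k : ℕ, g ^ k ≠ 1 → ∀ e ∈ E, g ^ k * e = e * g ^ k → e = 1)
    (E' : Subgroup (G ⧸ K)) (hE'1 : E' ≠ ⊥) (hE' : ¬ t ∣ Nat.card ↥E') (g' : G ⧸ K) (hg't : ¬ t ∣ orderOf g')
    (hco : Nat.Coprime (orderOf g) (orderOf g'))
    (hgE' : g' ∈ Subgroup.normalizer (E' : Set (G ⧸ K)))
    (hfr' : ∀ k : ℕ, g' ^ k ≠ 1 → ∀ e ∈ E', g' ^ k * e = e * g' ^ k → e = 1)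
    (hcomm : ∀ a ∈ insert g (E : Set (G ⧸ K)), ∀ c ∈ insert g' (E' : Set (G ⧸ K)), a * c = c * a)
    (X : Subgroup (G ⧸ K)) (hX : IsSimpleGroup ↥X) (hE'X : E' ≤ X) (hg'X : g' ∈ X)
    (hXc : ∀ a ∈ insert g (E : Set (G ⧸ K)), ∀ c ∈ X, a * c = c * a) :
    ∃ y : G, orderOf y = t * orderOf g * orderOf g' := by
  obtain ⟨L, hLn, V0, cg, ι, π, ρ, h⟩ := exists_ext K hK ht htK
  refine lift_order (QuotientGroup.mk' L) QuotientGroup.mk_surjective
    (Nat.mul_ne_zero (Nat.mul_ne_zero ht.ne_zero (orderOf_pos g).ne') (orderOf_pos g').ne') ?_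
  exact h.frob_mul hS hp hpt hpS
    (fun h1 => hno (lift_order (QuotientGroup.mk' L) QuotientGroup.mk_surjective
      (Nat.mul_ne_zero hp.ne_zero ht.ne_zero) h1)) hE hES hEt hgE hfr hE'1 hE' hg't hco hgE' hfr' hcomm hX hE'X hg'X hXc

theorem sylow_tool {G : Type*} [Group G] [Finite G] (N : Subgroup G) [N.Normal] {t s : ℕ} (ht : t.Prime) (hs : s.Prime)
    (hts : t ≠ s) (hs2 : s ≠ 2) (htN : t ∣ Nat.card ↥N) (hno : ¬ ∃ y : G, orderOf y = t * s)
    (A : Subgroup (G ⧸ N)) (hA : IsPGroup s ↥A) (hab : ∀ x ∈ A, ∀ y ∈ A, x * y = y * x) (hnc : ¬ IsCyclic ↥A) : False :=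
  hnc (H405.RadGrp.isCyclic_of_rad N ht hs hs2 hts htN hno A hA)

end section_

end Cfsg.Agent.H117.FrobTool
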